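import Cfsg.Agent.H244.TD.One
import Cfsg.Agent.H866.TD.Two
import Cfsg.Agent.H911.TD.Psi

/-!
# S3509, `³D₄(q)`, `q ≡ 1 mod 3`: fields `long`, `s0` of helper244's `Hy`, and `eq_one_T` (helper442)

`x₀ = conj (Φ₀ (hS d)) * st q τ`, `d ^ 3 = 1`, `d ≠ 1`, `τ ^ 3 = 1`.

* `ker_zero` : `Φ₀` is injective;
* `n_t_n'` : `χ₁ (n₀⁻¹ t n₀) = χ₀ t χ₁ t`;
* `s0_field`, `long_field`, `eq_one_T`.
-/

set_option autoImplicit false
set_option linter.unusedSectionVars false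
set_option maxHeartbeats 400000

namespace Cfsg.Agent.H442.TD.HyL

open CoxeterSystem Cfsg.Agent.ChevalleyStructure.CoxeterGeom Cfsg.Agent.Tits.Roots Cfsg.Agent.Tits.Core
  Cfsg.Agent.Tits.Exchange Cfsg.Agent.Nodes.Reps Cfsg.Agent.Nodes.BNOf Cfsg.Agent.Nodes.StabComb
  Cfsg.Agent.Nodes.Bruhat Cfsg.Agent.Nodes.OppDec Cfsg.Agent.Nodes.LeviDec Cfsg.Agent.Nodes.RGDTwGen
  Cfsg.Agent.Nodes.RGDChev Cfsg.Agent.Nodes.RGDFold Cfsg.Agent.Nodes.RGDFoldSL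
open Cfsg.Agent.KFacts.RgdOpp Cfsg.Agent.KFacts.RgdAut Cfsg.Agent.KFacts.RgdDiag Cfsg.Agent.KFacts.RgdRigid
  Cfsg.Agent.KFacts.RgdField Cfsg.Agent.KFacts.RgdTau Cfsg.Agent.KFacts.RgdNodes
open Cfsg.Lie Cfsg.Agent.ChevalleyStructure Cfsg.Agent.ChevalleyStructure.Elts
open Cfsg.Agent.ChevalleyStructure.SL2Hom (up lo mem_closure_SL2)
open Cfsg.Agent.KFacts.TwDFour.Out
open Cfsg.Agent.Nodes.RGDTwD4 Cfsg.Agent.Nodes.RGDTwNode.D4
open Cfsg.Agent.CpAut.RgdFix Cfsg.Agent.CpAut.RgdConj Cfsg.Agent.CpAut.RgdTwStd Cfsg.Agent.CpAut.RgdTwD4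
open Cfsg.Agent.H28.FamFour (st_mul st_one)
open Cfsg.Agent.H866.D4Wf.Frame Cfsg.Agent.H866.D4Wf.SLThree
open Cfsg.Agent.H866.TD (comm_ne exists_comm exists_n_conj ch_st)
open Cfsg.Agent.H911.TD (mm Psi psi_comm)

variable {K : Type} [Field K] [Fintype K] {q : ℕ} (hK : Fintype.card K = q ^ 3)
  {φ : K →+* K} (hφ : ∀ x, φ x = x ^ q)

section tor

include hK in
/-- `Φ₀` is injective -/
theorem ker_zero {A : Matrix.SpecialLinearGroup (Fin 2) (KD φ 0)} (hA : PhiD hφ hK 0 A = 1) : A = 1 := by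
  obtain ⟨h10, h01, -⟩ := ker_Phi hK hφ 0 hA
  have hdet := A.2
  rw [Matrix.det_fin_two, h01, zero_mul, sub_zero] at hdet
  have h0 : A.1 0 0 ≠ 0 := left_ne_zero_of_mul_eq_one hdet
  have hA' : A = hS (A.1 0 0) := by
    apply Subtype.ext
    show A.1 = (hS (A.1 0 0)).1
    rw [coe_hS h0]
    apply Matrix.ext
    intro i j
    fin_cases i <;> fin_cases j
    · rfl
    · exact h01
    · exact h10
    · exact eq_inv_of_mul_eq_one_right hdet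
  have h1 := ch01 hφ hK (A.1 0 0) h0
  rw [← hA', hA, ch_one hK hφ] at h1
  have h2 : A.1 0 0 = 1 := by
    apply Subtype.ext
    show ((A.1 0 0 : KD φ 0) : K) = 1
    have h3 : (1 : K) = ((A.1 0 0 : KD φ 0) : K)⁻¹ := h1
    rw [← inv_inj, inv_one, ← h3]
  have h4 : A.1 1 1 = 1 := by rw [h2, one_mul] at hdet; exact hdet
  apply Subtype.ext
  apply Matrix.ext
  intro i j
  fin_cases i <;> fin_cases j
  · exact h2
  · exact h01
  · exact h10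
  · exact h4

include hK in
/-- the reflection of the long node on the torus, with its sign -/
theorem n_t_n' {t : ↥(twistedD4 K q)} (ht : t ∈ T K q) :
    (n hφ 0)⁻¹ * t * n hφ 0 ∈ T K q ∧
      (chD hφ hK 1 ((n hφ 0)⁻¹ * t * n hφ 0) : K) = (chD hφ hK 0 t : K) * (chD hφ hK 1 t : K) := by
  obtain ⟨r, hr⟩ := CharP.exists K
  have : Fact r.Prime := ⟨CharP.char_is_prime K r⟩
  have : Finite CoxeterMatrix.G₂.Group := finiteW cs
  have R := rgd' hK hφ r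
  have hT' : (n hφ 0)⁻¹ * t * n hφ 0 ∈ T K q := (n_t_n hK hφ ht).1
  refine ⟨hT', ?_⟩
  obtain ⟨s, hs⟩ : ∃ s, s = (n hφ 0)⁻¹ * t * n hφ 0 * t⁻¹ := ⟨_, rfl⟩
  have hsT : s ∈ T K q := by rw [hs]; exact mul_mem hT' (inv_mem ht)
  have hnr : n hφ 0 ∈ (PhiD hφ hK 0).range := ⟨wS 1, PhiD_wS hφ hK 0⟩
  have hsr : s ∈ (PhiD hφ hK 0).range := by
    have h1 : s = (n hφ 0)⁻¹ * (t * n hφ 0 * t⁻¹) := by rw [hs]; group
    rw [h1]
    exact mul_mem (inv_mem hnr) ((Subgroup.mem_normalizer_iff.1 (T_le_normalizer hK hφ 0 ht) _).1 hnr)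
  have hrange : (PhiD hφ hK 0).range ≤ X φ q (sr 0) ⊔ X φ q (-sr 0) := by
    rintro _ ⟨A, rfl⟩
    have h3 : Subgroup.closure (Set.range (up (F := KD φ 0)) ∪ Set.range (lo (F := KD φ 0))) ≤
        (X φ q (sr 0) ⊔ X φ q (-sr 0)).comap (PhiD hφ hK 0) := by
      rw [Subgroup.closure_le]
      rintro _ (⟨a, rfl⟩ | ⟨a, rfl⟩)
      · exact Subgroup.mem_sup_left ((mem_X hφ hK 0 _).2 ⟨a, rfl⟩)
      · exact Subgroup.mem_sup_right ((mem_negX hK hφ 0 _).2 ⟨a, rfl⟩)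
    exact h3 (mem_closure_SL2 A)
  obtain ⟨d, hd, hsd⟩ := Cfsg.Agent.KFacts.TwESix.NodeCoord.coroot_mem R (mem_X hφ hK 0) (PhiD_wS hφ hK 0) (PhiD_hS hφ hK 0) hsT (hrange hsr)
  obtain ⟨c, hc⟩ : ∃ c, c = chD hφ hK 0 t := ⟨_, rfl⟩
  have hc0 : c ≠ 0 := by rw [hc]; exact ch_ne_zero hK hφ ht 0
  -- the image of `lo (-1)`
  obtain ⟨e, he⟩ : ∃ e, t * PhiD hφ hK 0 (lo (-(1 : KD φ 0)⁻¹)) * t⁻¹ = PhiD hφ hK 0 (lo e) := by
    refine (mem_negX hK hφ 0 _).1 ?_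
    rw [← R.tor _ (isRoot_sr cs isCartan 0).neg t ht]
    exact conj_mem_cj.2 ((mem_negX hK hφ 0 _).2 ⟨_, rfl⟩)
  have h1 : t * n hφ 0 * t⁻¹ = PhiD hφ hK 0 (up c * (lo e * up c)) := by
    have h2 := act_up hK hφ ht 0 1
    rw [mul_one, ← hc] at h2
    rw [map_mul, map_mul, ← he, ← h2, ← PhiD_wS hφ hK 0]
    show t * PhiD hφ hK 0 (up 1 * (lo (-(1 : KD φ 0)⁻¹) * up 1)) * t⁻¹ = _
    rw [map_mul, map_mul]
    group
  have h2 : t * n hφ 0 * t⁻¹ = PhiD hφ hK 0 (wS 1 * hS d) := by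
    rw [map_mul, PhiD_wS, ← hsd, hs]
    group
  have h3 : PhiD hφ hK 0 ((up c * (lo e * up c)) * (wS 1 * hS d)⁻¹) = 1 := by
    rw [map_mul, map_inv, ← h1, ← h2, mul_inv_cancel]
  have h4 := ker_zero hK hφ h3
  have h7 : up c * (lo e * up c) = wS 1 * hS d := mul_inv_eq_one.1 h4
  have hu1 : (up c : Matrix.SpecialLinearGroup (Fin 2) (KD φ 0)).1 = !![1, c; 0, 1] := rfl
  have hl1 : (lo e : Matrix.SpecialLinearGroup (Fin 2) (KD φ 0)).1 = !![1, 0; e, 1] := rfl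
  have h8 := congrArg (fun M : Matrix.SpecialLinearGroup (Fin 2) (KD φ 0) => M.1 0 0) h7
  have h9 := congrArg (fun M : Matrix.SpecialLinearGroup (Fin 2) (KD φ 0) => M.1 0 1) h7
  simp only [Matrix.SpecialLinearGroup.coe_mul, coe_wS one_ne_zero, coe_hS hd, Matrix.mul_apply, Fin.sum_univ_two,
    hu1, hl1] at h8 h9
  simp at h8 h9
  have h8' : 1 + c * e = 0 := h8
  have h11 : (chD hφ hK 1 s : K) = (d : K)⁻¹ := by
    rw [hsd]
    exact ch01 hφ hK _ hd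
  have h12 : (n hφ 0)⁻¹ * t * n hφ 0 = s * t := by rw [hs, inv_mul_cancel_right]
  rw [h12, ch_mul hK hφ hsT ht]
  have h13 : (c : K) = (d : K)⁻¹ := by
    have h14 : c = d⁻¹ := by
      rw [← h9]
      linear_combination (-c) * h8'
    rw [h14]
    rfl
  rw [← hc]
  show (chD hφ hK 1 s : K) * (chD hφ hK 1 t : K) = _
  rw [h11, h13]

/-- an element of the torus centralising an element of `X_01` -/
theorem ch_one_of_comm {y a : ↥(twistedD4 K q)} (hy : y ∈ T K q) (ha : a ∈ X φ q ![0, 1]) (ha1 : a ≠ 1)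
    (h : y * a = a * y) : chD hφ hK 1 y = 1 := by
  obtain ⟨s, rfl⟩ := (mem_X hφ hK 1 a).1 (sr1_eq ▸ ha)
  have h1 := act_up hK hφ hy 1 s
  rw [h, mul_inv_cancel_right] at h1
  have h2 := (coordD hφ hK 1).inj h1
  have hs : s ≠ 0 := by
    rintro rfl
    exact ha1 (coordD hφ hK 1).zero
  exact mul_right_cancel₀ hs (by rw [one_mul]; exact h2.symm)

include hK hφ in
/-- **`C_T(X_01, X_11) = 1`**, even for single elements -/
theorem eq_one_T : ∀ y ∈ T K q, ∀ a ∈ X φ q ![0, 1], a ≠ 1 → y * a = a * y → ∀ b ∈ X φ q ![1, 1], b ≠ 1 →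
    y * b = b * y → y = 1 := by
  intro y hy a ha ha1 hya b hb hb1 hyb
  have h1 := ch_one_of_comm hK hφ hy ha ha1 hya
  obtain ⟨b', hb', rfl⟩ := exists_n_conj hK hφ 0 (x := ![0, 1]) (y := ![1, 1]) (by decide) (by rw [rep0]; decide) hb
  obtain ⟨hT', h2⟩ := n_t_n' hK hφ hy
  have hb1' : b' ≠ 1 := by
    rintro rfl
    apply hb1
    group
  have h3 := ch_one_of_comm hK hφ hT' hb' hb1' (by
    have e : (n hφ 0)⁻¹ * y * n hφ 0 * b' = (n hφ 0)⁻¹ * (y * (n hφ 0 * b' * (n hφ 0)⁻¹)) * n hφ 0 := by group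
    rw [e, hyb]
    group)
  rw [h3, h1] at h2
  have h4 : chD hφ hK 0 y = 1 := by
    apply Subtype.ext
    have h5 : (1 : K) = (chD hφ hK 0 y : K) * 1 := h2
    rw [mul_one] at h5
    exact h5.symm
  have h5 := conj_eq_one_of_ch hK hφ hy (fun i => by
    fin_cases i
    · exact h4
    · exact h1)
  apply eq_one_of_center hK hφ
  intro g
  have h6 : y * g * y⁻¹ = g := by
    rw [← MulAut.conj_apply, h5]
    rfl
  rw [mul_inv_eq_iff_eq_mul] at h6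
  exact h6

end tor

section d

variable {d : KD φ 0}

theorem ne_zero_of_cube {F : Type*} [Field F] {d : F} (hd : d ^ 3 = 1) : d ≠ 0 := by
  rintro rfl
  rw [zero_pow three_ne_zero] at hd
  exact zero_ne_one hd

include hK in
/-- `n₀` inverts `h₀ (d)` -/
theorem n_h (hd : d ≠ 0) : n hφ 0 * PhiD hφ hK 0 (hS d) * (n hφ 0)⁻¹ = (PhiD hφ hK 0 (hS d))⁻¹ := by
  rw [← PhiD_wS hφ hK 0, ← map_inv, ← map_inv, ← map_mul, ← map_mul]
  congr 1
  rw [mul_inv_eq_iff_eq_mul]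
  have e : (hS d : Matrix.SpecialLinearGroup (Fin 2) (KD φ 0))⁻¹ = hS d⁻¹ := by
    rw [inv_eq_iff_mul_eq_one]
    apply Subtype.ext
    show (hS d).1 * (hS d⁻¹).1 = 1
    rw [coe_hS hd, coe_hS (inv_ne_zero hd), Matrix.mul_fin_two]
    simp [hd, Matrix.one_fin_two]
  rw [e]
  apply Subtype.ext
  show (wS 1).1 * (hS d).1 = (hS d⁻¹).1 * (wS 1).1
  rw [coe_hS hd, coe_hS (inv_ne_zero hd), coe_wS one_ne_zero, Matrix.mul_fin_two, Matrix.mul_fin_two]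
  simp

include hK in
theorem comm_n {a : ↥(twistedD4 K q)} (hd : d ≠ 0) (h : PhiD hφ hK 0 (hS d) * a = a * PhiD hφ hK 0 (hS d)) :
    PhiD hφ hK 0 (hS d) * (n hφ 0 * a * (n hφ 0)⁻¹) = n hφ 0 * a * (n hφ 0)⁻¹ * PhiD hφ hK 0 (hS d) := by
  have h1 := n_h hK hφ hd
  obtain ⟨H, hH⟩ : ∃ H, H = PhiD hφ hK 0 (hS d) := ⟨_, rfl⟩
  rw [← hH] at h h1 ⊢
  have h2 : H = n hφ 0 * H⁻¹ * (n hφ 0)⁻¹ := by
    rw [show n hφ 0 * H⁻¹ * (n hφ 0)⁻¹ = (n hφ 0 * H * (n hφ 0)⁻¹)⁻¹ by group, h1, inv_inv]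
  have h4 : H⁻¹ * a = a * H⁻¹ := by
    rw [inv_mul_eq_iff_eq_mul, ← mul_assoc, h, mul_inv_cancel_right]
  have h5 : H * (n hφ 0 * a * (n hφ 0)⁻¹) = n hφ 0 * (H⁻¹ * a) * (n hφ 0)⁻¹ := by
    conv_lhs => rw [h2]
    group
  have h6 : n hφ 0 * a * (n hφ 0)⁻¹ * H = n hφ 0 * (a * H⁻¹) * (n hφ 0)⁻¹ := by
    conv_lhs => rw [h2]
    group
  rw [h5, h6, h4]

/-- `h₀ (d)` has no fixed points on `X_10` -/
theorem long10 (hd : d ^ 3 = 1) (hd1 : d ≠ 1) {a : ↥(twistedD4 K q)} (ha : a ∈ X φ q ![1, 0])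
    (h : PhiD hφ hK 0 (hS d) * a = a * PhiD hφ hK 0 (hS d)) : a = 1 := by
  have hd0 : d ≠ 0 := ne_zero_of_cube hd
  obtain ⟨s, rfl⟩ := (mem_X hφ hK 0 a).1 (sr0_eq ▸ ha)
  have h1 := act_up hK hφ (PhiD_hS hφ hK 0 d hd0) 0 s
  rw [h, mul_inv_cancel_right, chD_hS hφ hK 0 d hd0] at h1
  have h2 := (coordD hφ hK 0).inj h1
  by_cases hs : s = 0
  · rw [hs]
    exact (coordD hφ hK 0).zero
  · exfalso
    have h3 : d ^ 2 = 1 := mul_right_cancel₀ hs (by rw [one_mul]; exact h2.symm)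
    apply hd1
    rw [pow_succ, h3, one_mul] at hd
    exact hd

/-- no fixed points on `X_13` -/
theorem long13 (hd : d ^ 3 = 1) (hd1 : d ≠ 1) {a : ↥(twistedD4 K q)} (ha : a ∈ X φ q ![1, 3])
    (h : PhiD hφ hK 0 (hS d) * a = a * PhiD hφ hK 0 (hS d)) : a = 1 := by
  by_contra ha1
  have hd0 : d ≠ 0 := ne_zero_of_cube hd
  have hc := n_conj hK hφ 0 (x := ![1, 3]) (by decide) ha
  rw [rep0, show (![3 - 1, 3] : Fin 2 → ℤ) = ![2, 3] by decide] at hc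
  have h1 := comm_n hK hφ hd0 h
  obtain ⟨g, hg, hga⟩ := exists_comm hK hφ ha ha1 hc
  have hT := PhiD_hS hφ hK 0 d hd0
  obtain ⟨H, hH⟩ : ∃ H, H = PhiD hφ hK 0 (hS d) := ⟨_, rfl⟩
  have hg' := t_conj hK hφ (x := ![1, 0]) (by decide) hT hg
  rw [← hH] at h h1 hg'
  have h2 : (H * g * H⁻¹) * a * (H * g * H⁻¹)⁻¹ = g * a * g⁻¹ := by
    have e1 : (H * g * H⁻¹) * a * (H * g * H⁻¹)⁻¹ = H * (g * (H⁻¹ * (a * H)) * g⁻¹) * H⁻¹ := by group
    rw [e1, ← h, inv_mul_cancel_left, hga, ← mul_assoc, h1, mul_assoc _ H a, h]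
    group
  have h3 : g⁻¹ * (H * g * H⁻¹) = 1 := by
    by_contra hne
    apply ha1
    refine comm_ne hK hφ (a := g⁻¹ * (H * g * H⁻¹)) (mul_mem (inv_mem hg) hg') hne ha ?_
    have e2 : g⁻¹ * (H * g * H⁻¹) * a = g⁻¹ * ((H * g * H⁻¹) * a * (H * g * H⁻¹)⁻¹) * (H * g * H⁻¹) := by group
    rw [e2, h2]
    group
  have h4 : H * g = g * H := by
    rw [inv_mul_eq_one] at h3
    rw [eq_comm, mul_inv_eq_iff_eq_mul] at h3
    exact h3
  rw [hH] at h4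
  have h5 := long10 hK hφ hd hd1 hg h4
  rw [h5] at hga
  apply ha1
  have h6 : n hφ 0 * a * (n hφ 0)⁻¹ = 1 := by
    have h7 : n hφ 0 * a * (n hφ 0)⁻¹ * a = a := by rw [← hga]; group
    exact mul_right_cancel (h7.trans (one_mul a).symm)
  rw [mul_inv_eq_one] at h6
  exact mul_left_cancel (h6.trans (mul_one _).symm)

include hK in
theorem n_inv' (i : Fin 2) {x y : Fin 2 → ℤ} (hx : x ∈ rts) (hxy : rep cs isCartan (cs.simple i) x = y)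
    {b : ↥(twistedD4 K q)} (hb : b ∈ X φ q y) : (n hφ i)⁻¹ * b * n hφ i ∈ X φ q x := by
  obtain ⟨a, ha, rfl⟩ := exists_n_conj hK hφ i hx hxy hb
  have e : (n hφ i)⁻¹ * (n hφ i * a * (n hφ i)⁻¹) * n hφ i = a := by group
  rw [e]
  exact ha

/-- an element of `X_{-1-3}` is conjugate to one of `X_13` by an element inverting `h₀ (d)` -/
theorem longn13 (hd : d ^ 3 = 1) (hd1 : d ≠ 1) {b : ↥(twistedD4 K q)} (hb : b ∈ X φ q ![-1, -3])
    (h : PhiD hφ hK 0 (hS d) * b = b * PhiD hφ hK 0 (hS d)) : b = 1 := by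
  have hd0 : d ≠ 0 := ne_zero_of_cube hd
  have b1 := n_inv' hK hφ 1 (x := ![-1, 0]) (y := ![-1, -3]) (by decide) (by rw [rep1]; decide) hb
  have b2 := n_inv' hK hφ 0 (x := ![1, 0]) (y := ![-1, 0]) (by decide) (by rw [rep0]; decide) b1
  have b3 := n_conj hK hφ 1 (x := ![1, 0]) (by decide) b2
  rw [rep1, show (![1, 3 * 1 - 0] : Fin 2 → ℤ) = ![1, 3] by decide] at b3
  have b4 := n_conj hK hφ 0 (x := ![1, 3]) (by decide) b3
  rw [rep0, show (![3 - 1, 3] : Fin 2 → ℤ) = ![2, 3] by decide] at b4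
  have b5 := n_conj hK hφ 1 (x := ![2, 3]) (by decide) b4
  rw [rep1, show (![2, 3 * 2 - 3] : Fin 2 → ℤ) = ![2, 3] by decide] at b5
  have b6 := n_conj hK hφ 0 (x := ![2, 3]) (by decide) b5
  rw [rep0, show (![3 - 2, 3] : Fin 2 → ℤ) = ![1, 3] by decide] at b6
  -- the reflection of `[1, 2]`
  obtain ⟨k, hk⟩ : ∃ k, k = mm hφ * n hφ 1 * (mm hφ)⁻¹ := ⟨_, rfl⟩
  have hkP : k = Psi hK hφ (wS 1) := by
    rw [hk, ← PhiD_wS hφ hK 1]
    show _ = mm hφ * PhiD hφ hK 1 (Matrix.SpecialLinearGroup.map (Cfsg.Agent.H911.TD.inc hK hφ) (wS 1)) * (mm hφ)⁻¹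
    rw [map_wS, map_one]
  have hkc : PhiD hφ hK 0 (hS d) * k = k * PhiD hφ hK 0 (hS d) := by rw [hkP]; exact psi_comm hK hφ _ _
  have h1 : PhiD hφ hK 0 (hS d) * (k * b * k⁻¹) = k * b * k⁻¹ * PhiD hφ hK 0 (hS d) := by
    obtain ⟨H, hH⟩ : ∃ H, H = PhiD hφ hK 0 (hS d) := ⟨_, rfl⟩
    rw [← hH] at h hkc ⊢
    have h2 : H * k⁻¹ = k⁻¹ * H := by
      rw [eq_inv_mul_iff_mul_eq, ← mul_assoc, ← hkc, mul_inv_cancel_right]
    calc H * (k * b * k⁻¹) = (H * k) * b * k⁻¹ := by group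
      _ = k * (H * b) * k⁻¹ := by rw [hkc]; group
      _ = k * b * (H * k⁻¹) := by rw [h]; group
      _ = k * b * k⁻¹ * H := by rw [h2]; group
  have h3 := comm_n hK hφ hd0 h1
  have e : n hφ 0 * (k * b * k⁻¹) * (n hφ 0)⁻¹ = n hφ 0 * (n hφ 1 * (n hφ 0 * (n hφ 1 * ((n hφ 0)⁻¹ *
      ((n hφ 1)⁻¹ * b * n hφ 1) * n hφ 0) * (n hφ 1)⁻¹) * (n hφ 0)⁻¹) * (n hφ 1)⁻¹) * (n hφ 0)⁻¹ := by
    rw [hk]
    unfold mm
    group
  rw [← e] at b6
  have h4 := long13 hK hφ hd hd1 b6 h3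
  have e2 : b = (n hφ 0 * k)⁻¹ * (n hφ 0 * (k * b * k⁻¹) * (n hφ 0)⁻¹) * (n hφ 0 * k) := by group
  rw [e2, h4]
  group

/-- all long root groups -/
theorem long_comm (hd : d ^ 3 = 1) (hd1 : d ≠ 1) {z : Fin 2 → ℤ} (hz : z ∈ Cfsg.Agent.H244.TD.One.lg)
    {a : ↥(twistedD4 K q)} (ha : a ∈ X φ q z)
    (h : PhiD hφ hK 0 (hS d) * a = a * PhiD hφ hK 0 (hS d)) : a = 1 := by
  have hd0 : d ≠ 0 := ne_zero_of_cube hd
  have key : ∀ {x y : Fin 2 → ℤ}, x ∈ rts → rep cs isCartan (cs.simple 0) x = y →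
      (∀ b ∈ X φ q y, PhiD hφ hK 0 (hS d) * b = b * PhiD hφ hK 0 (hS d) → b = 1) →
      ∀ b ∈ X φ q x, PhiD hφ hK 0 (hS d) * b = b * PhiD hφ hK 0 (hS d) → b = 1 := by
    intro x y hx hxy hY b hb hbc
    have h1 := n_conj hK hφ 0 hx hb
    rw [hxy] at h1
    have h2 := hY _ h1 (comm_n hK hφ hd0 hbc)
    rw [mul_inv_eq_one] at h2
    exact mul_left_cancel (h2.trans (mul_one _).symm)
  simp only [Cfsg.Agent.H244.TD.One.lg, List.mem_cons, List.not_mem_nil, or_false] at hz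
  rcases hz with rfl | rfl | rfl | rfl | rfl | rfl
  · exact long10 hK hφ hd hd1 ha h
  · exact long13 hK hφ hd hd1 ha h
  · exact key (x := ![2, 3]) (y := ![1, 3]) (by decide) (by rw [rep0]; decide)
      (fun b hb hc => long13 hK hφ hd hd1 hb hc) a ha h
  · exact key (x := ![-1, 0]) (y := ![1, 0]) (by decide) (by rw [rep0]; decide)
      (fun b hb hc => long10 hK hφ hd hd1 hb hc) a ha h
  · exact longn13 hK hφ hd hd1 ha h
  · exact key (x := ![-2, -3]) (y := ![-1, -3]) (by decide) (by rw [rep0]; decide)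
      (fun b hb hc => longn13 hK hφ hd hd1 hb hc) a ha h

end d

section st

include hK hφ in
/-- `st q τ` fixes the long root groups -/
theorem st_long (hq : IsPrimePow q) {τ : K ≃+* K} (hτ : τ ^ 3 = 1) {z : Fin 2 → ℤ}
    (hz : z ∈ Cfsg.Agent.H244.TD.One.lg) {a : ↥(twistedD4 K q)} (ha : a ∈ X φ q z) : st q τ a = a := by
  have key : ∀ (i : Fin 2) {x y : Fin 2 → ℤ}, x ∈ rts → rep cs isCartan (cs.simple i) x = y →
      (∀ b ∈ X φ q x, st q τ b = b) → ∀ b ∈ X φ q y, st q τ b = b := by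
    intro i x y hx hxy hX b hb
    obtain ⟨c, hc, rfl⟩ := exists_n_conj hK hφ i hx hxy hb
    rw [map_mul, map_mul, map_inv, st_n, hX c hc]
  have h10 : ∀ b ∈ X φ q ![1, 0], st q τ b = b := by
    intro b hb
    obtain ⟨s, rfl⟩ := (mem_X hφ hK 0 b).1 (sr0_eq ▸ hb)
    exact st_Phi_zero hK hφ hq hτ _
  have h13 := key 1 (x := ![1, 0]) (y := ![1, 3]) (by decide) (by rw [rep1]; decide) h10
  have h23 := key 0 (x := ![1, 3]) (y := ![2, 3]) (by decide) (by rw [rep0]; decide) h13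
  have hn10 := key 0 (x := ![1, 0]) (y := ![-1, 0]) (by decide) (by rw [rep0]; decide) h10
  have hn13 := key 1 (x := ![-1, 0]) (y := ![-1, -3]) (by decide) (by rw [rep1]; decide) hn10
  have hn23 := key 0 (x := ![-1, -3]) (y := ![-2, -3]) (by decide) (by rw [rep0]; decide) hn13
  simp only [Cfsg.Agent.H244.TD.One.lg, List.mem_cons, List.not_mem_nil, or_false] at hz
  rcases hz with rfl | rfl | rfl | rfl | rfl | rfl
  · exact h10 a ha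
  · exact h13 a ha
  · exact h23 a ha
  · exact hn10 a ha
  · exact hn13 a ha
  · exact hn23 a ha

/-- **field `long`** -/
theorem long_field (hq : IsPrimePow q) {d : KD φ 0} (hd : d ^ 3 = 1) (hd1 : d ≠ 1) {τ : K ≃+* K} (hτ : τ ^ 3 = 1) :
    ∀ z ∈ Cfsg.Agent.H244.TD.One.lg, ∀ a ∈ X φ q z,
      (MulAut.conj (PhiD hφ hK 0 (hS d)) * st q τ) a = a → a = 1 := by
  intro z hz a ha h
  have h1 : PhiD hφ hK 0 (hS d) * st q τ a * (PhiD hφ hK 0 (hS d))⁻¹ = a := h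
  rw [st_long hK hφ hq hτ hz ha, mul_inv_eq_iff_eq_mul] at h1
  exact long_comm hK hφ hd hd1 hz ha h1

/-- **field `s0`** -/
theorem s0_field (hq : IsPrimePow q) (r : ℕ) [Fact r.Prime] [CharP K r] {d : KD φ 0} (hd : d ^ 3 = 1) (hd1 : d ≠ 1)
    {τ : K ≃+* K} (hτ : τ ^ 3 = 1) :
    ∀ k, Rp cs (rgd' hK hφ r).nsys (cs.simple 0) k →
      (MulAut.conj (PhiD hφ hK 0 (hS d)) * st q τ) k = k → False := by
  intro k hk h
  have hd0 : d ≠ 0 := ne_zero_of_cube hd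
  have ht : (n hφ 0)⁻¹ * k ∈ T K q := Rp.unique (rp_simple cs (rgd' hK hφ r).nsys 0) hk
  obtain ⟨t, ht'⟩ : ∃ t, t = (n hφ 0)⁻¹ * k := ⟨_, rfl⟩
  rw [← ht'] at ht
  have hk' : k = n hφ 0 * t := by rw [ht']; group
  have h1 : PhiD hφ hK 0 (hS d) * st q τ k * (PhiD hφ hK 0 (hS d))⁻¹ = k := h
  rw [hk', map_mul, st_n] at h1
  have hT := PhiD_hS hφ hK 0 d hd0
  have hn := n_h hK hφ hd0
  have hch := chD_hS hφ hK 0 d hd0
  obtain ⟨H, hH⟩ : ∃ H, H = PhiD hφ hK 0 (hS d) := ⟨_, rfl⟩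
  rw [← hH] at h1 hT hn hch
  have h2 : st q τ t = H * t * H := by
    have h3 : n hφ 0 * H * (n hφ 0)⁻¹ * H = 1 := by rw [hn, inv_mul_cancel]
    have h4 : st q τ t = (n hφ 0)⁻¹ * H⁻¹ * n hφ 0 * t * H := by
      have h5 : H * (n hφ 0 * st q τ t) = n hφ 0 * t * H := mul_inv_eq_iff_eq_mul.1 h1
      have h6 : n hφ 0 * st q τ t = H⁻¹ * (n hφ 0 * t * H) := by rw [← h5]; group
      have h7 : st q τ t = (n hφ 0)⁻¹ * (n hφ 0 * st q τ t) := by group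
      rw [h7, h6]
      group
    rw [h4]
    have h8 : (n hφ 0)⁻¹ * H⁻¹ * n hφ 0 = H := by
      have h9 : H⁻¹ = n hφ 0 * H * (n hφ 0)⁻¹ := hn.symm
      rw [h9]
      group
    rw [h8]
  have h3 := congrArg (chD hφ hK 0) h2
  rw [ch_st hK hφ ht, rs_zero hK hφ hq hτ, ch_mul hK hφ (mul_mem hT ht) hT, ch_mul hK hφ hT ht, hch] at h3
  have hc0 := ch_ne_zero hK hφ ht 0
  have h4 : d ^ 2 * d ^ 2 = 1 := by
    apply mul_right_cancel₀ hc0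
    rw [one_mul]
    conv_rhs => rw [h3]
    ring
  apply hd1
  have h5 : d ^ 2 * d ^ 2 = d ^ 3 * d := by ring
  rw [h5, hd, one_mul] at h4
  exact h4

end st

end Cfsg.Agent.H442.TD.HyL
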